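import Cfsg.Agent.H9.TCl
import Cfsg.Agent.H27.SkH

/-! Two opposite unipotent radicals contain all Eichler transformations: the abstract argument. -/

set_option autoImplicit false
set_option linter.unusedSectionVars false
set_option linter.unusedVariables false
set_option linter.unusedSimpArgs false

namespace Cfsg.Agent.H94

open scoped MatrixGroups Matrix
open Matrix Cfsg.Geo Cfsg.Agent.H98 Cfsg.Agent.H9

variable {ι : Type} [Fintype ι] [DecidableEq ι] {F : Type*} [Field F]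

/-- Singular vectors and valid parameters of Eichler transformations. -/
structure TgVS (σ : F ≃+* F) (ε : F) (f : (ι → F) → (ι → F) → F) (M : Subgroup (GL ι F))
    (Sg : (ι → F) → Prop) (Val : (ι → F) → F → Prop) : Prop where
  ses : IsSesq σ ε f
  le : M ≤ Isom σ f
  sg : ∀ u, Sg u → f u u = 0
  sgs : ∀ (c : F) u, Sg u → Sg (c • u)
  vd : ∀ v θ, Val v θ → Vd σ ε f v θ
  tv : ∀ v, ∃ θ, Val v θ
  sub : ∀ v v' θ θ', Val (v + v') θ' → Val v θ → Val v' (θ' - θ + ε * f v' v)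
  inv : ∀ g ∈ M, ∀ v θ, Val v θ → Val ((g : Matrix ι ι F) *ᵥ v) θ
  sm : ∀ (c : F) v θ, Val v θ → Val (c • v) (θ * (c * σ c))
  part : ∀ v w, Sg v → f w v ≠ 0 → ∃ c : F, Sg (w + c • v)
  move : ∀ u v z θ, Sg u → Sg v → f v u ≠ 0 → f z u = 0 → Vd σ ε f z θ →
    Sg (elm f ε u z θ *ᵥ v) → Val z θ

/-- All valid Eichler transformations `elm u v θ` lie in `M`. -/
def TgS (ε : F) (f : (ι → F) → (ι → F) → F) (M : Subgroup (GL ι F)) (Val : (ι → F) → F → Prop)
    (u v : ι → F) : Prop :=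
  ∀ θ, Val v θ → elm f ε u v θ ∈ matrixSet M

variable {σ : F ≃+* F} {ε : F} {f : (ι → F) → (ι → F) → F} {M : Subgroup (GL ι F)}
  {a : Matrix ι ι F}

local notation:max z "†" => adj σ f z

theorem tg_pd_adj (hf : IsSesq σ ε f) (P : PD σ f a) : PD σ f a† :=
  ⟨P.bb hf, by rw [hf.adj_adj]; exact P.ba, by rw [hf.adj_adj]; exact P.ab⟩

theorem tg_iso (hf : IsSesq σ ε f) (P : PD σ f a) {u u' : ι → F} (hu : a *ᵥ u = u)
    (hu' : a *ᵥ u' = u') : f u u' = 0 := by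
  rw [← hu, ← hu', hf.adj_spec, mulVec_mulVec, P.ba, zero_mulVec, hf.zero_right]

theorem tg_perp (hf : IsSesq σ ε f) {u v : ι → F} (hu : a *ᵥ u = u) (hv : a† *ᵥ v = 0) :
    f u v = 0 := by
  rw [← hu, hf.adj_spec, hv, hf.zero_right]

/-- The Eichler transformations in the unipotent radical. -/
theorem tg_rad (hf : IsSesq σ ε f) (hM : M ≤ Isom σ f) (P : PD σ f a) (h : FullQ σ f M a)
    {u v : ι → F} {θ : F} (hu : a *ᵥ u = u) (hv : a† *ᵥ v = 0) (hθ : Vd σ ε f v θ)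
    (hz : ∀ s ∈ matrixSet M, ∀ t, a * t = t → t† = -t → s * (1 + t) = elm f ε u v θ →
      ∃ c, t = c - c†) : elm f ε u v θ ∈ matrixSet M := by
  have huu := tg_iso hf P hu hu
  have huv := tg_perp hf hu hv
  have hvu := hf.eq_zero_comm.1 huv
  have hi := elm_isom hf huu hvu hθ
  have hbu : a† *ᵥ u = 0 := by rw [← hu, mulVec_mulVec, P.ba, zero_mulVec]
  have e0 : elm f ε u v θ - 1 = br f u v - ε • br f v u + θ • br f u u := by rw [elm]; abel
  have e1 : (elm f ε u v θ - 1) * (1 - a†) = br f u ((1 - a) *ᵥ v) := by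
    simp only [e0, add_mul, sub_mul, smul_mul_assoc, br_mul hf, hf.adj_sub, hf.adj_one, hf.adj_adj,
      sub_mulVec, one_mulVec, hu, sub_self, br_zero_right hf, smul_zero, sub_zero, add_zero]
  have hQ : InQ a (1 - a†) (elm f ε u v θ) := by
    refine ⟨?_, by rw [e1, mul_br, hu]⟩
    simp only [e0, add_mul, sub_mul, smul_mul_assoc, br_mul hf, hv, hbu, br_zero_right hf,
      smul_zero, sub_zero, add_zero]
  obtain ⟨s, hs, hq, hl⟩ := h.1 (br f u ((1 - a) *ᵥ v)) (by rw [mul_br, hu]) (by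
    rw [br_mul hf, mulVec_mulVec, hf.adj_sub, hf.adj_sub, hf.adj_one, hf.adj_adj]
    congr 1
    have : (1 - a - a†) * (1 - a) = 1 - a - a† := by
      simp only [mul_sub, sub_mul, mul_one, one_mul, P.aa, P.ba]; abel
    rw [this, sub_mulVec, hv, sub_zero])
  have is := ms_isom hf hM hs
  obtain ⟨t, t1, t2, t3⟩ := P.exists_zed hf hi hQ is hq (by rw [e1, hl])
  have t4 : s * (1 + t) = elm f ε u v θ := by rw [← t3, ← mul_assoc, is, one_mul]
  have t5 : t† = -t := by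
    have i3 : (1 + t) * (1 + t)† = 1 := by
      rw [← t3, hf.adj_mul, hf.adj_adj, mul_assoc, ← mul_assoc (elm f ε u v θ), hi, one_mul,
        adj_mul_self hf is]
    have i4 : t * t† = 0 := by
      have : t† = a * t† := by conv_lhs => rw [← t2, hf.adj_mul, hf.adj_adj]
      rw [this, ← t2, mul_assoc, ← mul_assoc a†, P.ba, zero_mul, mul_zero]
    rw [hf.adj_add, hf.adj_one, mul_add, mul_one, add_mul, one_mul, i4, add_zero, add_assoc,
      add_eq_left] at i3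
    exact eq_neg_of_add_eq_zero_right i3
  obtain ⟨c, hc⟩ := hz s hs t t1 t5 t4
  have := h.2 (a * c * a†) (by rw [← mul_assoc, ← mul_assoc, P.aa])
    (by rw [mul_assoc, P.bb hf])
  rw [hf.adj_mul, hf.adj_mul, hf.adj_adj, ← mul_assoc, ← sub_mul, ← mul_sub, ← hc, t1, t2] at this
  rw [← t4]
  exact ms_mul hs this

theorem tg_elm_smul (hf : IsSesq σ ε f) (c : F) (u v : ι → F) (θ : F) :
    elm f ε (c • u) v θ = elm f ε u (σ c • v) (θ * (σ c * σ (σ c))) := by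
  simp only [elm, br_smul_left, br_smul_right hf, hf.invol, smul_smul]

/-- The auxiliary pair of vectors. -/
theorem tg_pair (hf : IsSesq σ ε f) (P : PD σ f a) (hw : a + a† ≠ 1 ∨ 3 ≤ a.rank)
    {u u' : ι → F} (hu : a *ᵥ u = u) (hu' : a† *ᵥ u' = u') :
    ∃ w v, a† *ᵥ w = 0 ∧ a *ᵥ v = 0 ∧ f w v = 1 ∧ f w u' = 0 ∧ f u v = 0 := by
  rcases hw with hw | hw
  · obtain ⟨e, he⟩ : ∃ e, e = 1 - a† - a := ⟨_, rfl⟩
    have ea : e * a = 0 := by rw [he, sub_mul, P.Ea hf, P.aa, sub_self]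
    have ae : a * e = 0 := by rw [he, mul_sub, mul_sub, P.ab, P.aa]; simp
    have eb : e * a† = 0 := by rw [he, sub_mul, sub_mul, P.ab, P.bb hf]; simp
    have be : a† * e = 0 := by rw [he, mul_sub, mul_sub, P.ba, P.bb hf]; simp
    have ee : e * e = e := by conv_lhs => enter [2]; rw [he]
                              rw [mul_sub, mul_sub, ea, eb]; simp
    have e' : e† = e := by rw [he, hf.adj_sub, hf.adj_sub, hf.adj_one, hf.adj_adj]; abel
    have e0 : ∃ x, e *ᵥ x ≠ 0 := by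
      by_contra hc
      push Not at hc
      have : e = 0 := matrix_ext_mulVec fun x => by rw [hc, zero_mulVec]
      exact hw (by rw [he, sub_sub, sub_eq_zero] at this; rw [this, add_comm])
    obtain ⟨x, hx⟩ := e0
    obtain ⟨y, hy⟩ := exists_f_one' hf hx
    refine ⟨e *ᵥ y, e *ᵥ x, by rw [mulVec_mulVec, be, zero_mulVec],
      by rw [mulVec_mulVec, ae, zero_mulVec], ?_, ?_, ?_⟩
    · rw [hf.adj_spec, e', mulVec_mulVec, ee, hy]
    · rw [hf.adj_spec, e', ← hu', mulVec_mulVec, eb, zero_mulVec, hf.zero_right]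
    · rw [← hu, hf.adj_spec, mulVec_mulVec, be, zero_mulVec, hf.zero_right]
  · let φ : Module.Dual F (ι → F) :=
      { toFun := fun x => f x u'
        map_add' := fun x y => hf.add_left x y u'
        map_smul' := fun c x => hf.smul_left c x u' }
    obtain ⟨w, ⟨x, rfl⟩, h1, h2⟩ := H27.exists_ker_list [φ] (W := LinearMap.range a.mulVecLin)
      (S := Submodule.span F {u}) (by
        have := H27.finrank_span_single_le (F := F) u
        have h3 : 3 ≤ Module.finrank F (LinearMap.range a.mulVecLin) := hw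
        simp only [List.length_singleton]; omega)
    simp only [mulVecLin_apply] at h1 h2 ⊢
    obtain ⟨χ, c1, c2⟩ := exists_dot_of_not_smul (u := u) (v := a *ᵥ x) fun c hc =>
      h2 (hc ▸ Submodule.smul_mem _ c (Submodule.mem_span_singleton_self u))
    obtain ⟨y, rfl⟩ := exists_dl hf χ
    rw [dl_dot hf] at c1 c2
    refine ⟨a *ᵥ x, a† *ᵥ y, by rw [mulVec_mulVec, P.ba, zero_mulVec],
      by rw [mulVec_mulVec, P.ab, zero_mulVec], ?_, h1 φ (List.mem_singleton_self φ), ?_⟩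
    · rw [← hf.adj_spec, mulVec_mulVec, P.aa, c2]
    · rw [← hf.adj_spec, hu, c1]

variable {Sg : (ι → F) → Prop} {Val : (ι → F) → F → Prop} (S : TgVS σ ε f M Sg Val)
include S

theorem TgVS.add {u v v' : ι → F} (hu : f u u = 0) (hv : f v u = 0) (hv' : f v' u = 0)
    (h : TgS ε f M Val u v) (h' : TgS ε f M Val u v') : TgS ε f M Val u (v + v') := fun θ' hθ' => by
  obtain ⟨θ, hθ⟩ := S.tv v
  have := ms_mul (h θ hθ) (h' _ (S.sub v v' θ θ' hθ' hθ))
  rwa [elm_mul S.ses hu hv hv', show θ + (θ' - θ + ε * f v' v) - ε * f v' v = θ' by ring] at this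

theorem TgVS.conj {u v : ι → F} {g : GL ι F} (hg : g ∈ M) (h : TgS ε f M Val u v) :
    TgS ε f M Val ((g : Matrix ι ι F) *ᵥ u) ((g : Matrix ι ι F) *ᵥ v) := fun θ hθ => by
  rw [← cj_elm S.ses (S.le hg)]
  have := S.inv _ (M.inv_mem hg) _ _ hθ
  rw [inv_mulVec_mulVec] at this
  exact ms_cj (h θ this) hg

theorem TgVS.point (P : PD σ f a) (hw : ∀ u u', a *ᵥ u = u → a† *ᵥ u' = u' →
      ∃ w v, a† *ᵥ w = 0 ∧ a *ᵥ v = 0 ∧ f w v = 1 ∧ f w u' = 0 ∧ f u v = 0)
    (h1 : ∀ u v, a *ᵥ u = u → a† *ᵥ v = 0 → TgS ε f M Val u v)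
    (h2 : ∀ u v, a† *ᵥ u = u → a *ᵥ v = 0 → TgS ε f M Val u v) {u : ι → F} (hu : a *ᵥ u = u)
    {z : ι → F} (hz : f z u = 0) : TgS ε f M Val u z := by
  have hf := S.ses
  have huu := tg_iso hf P hu hu
  have hu' : a† *ᵥ (a† *ᵥ z) = a† *ᵥ z := by rw [mulVec_mulVec, P.bb hf]
  have h3 : f (a† *ᵥ z) u = 0 := by rw [hf.adj_spec', hu, hz]
  obtain ⟨w, v, w1, v1, wv, wu, uv⟩ := hw _ _ hu hu'
  obtain ⟨θ, hθ⟩ := S.tv v
  obtain ⟨g, hg, e⟩ := mem_matrixSet.1 (h2 _ v hu' v1 θ hθ)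
  have k := S.conj hg (h1 u w hu w1)
  rw [e, elm_mulVec hf, elm_mulVec hf, uv, wv, wu, hf.eq_zero_comm.1 h3] at k
  simp only [mul_zero, add_zero, zero_smul, sub_zero, one_smul] at k
  have w2 : a† *ᵥ (z - a† *ᵥ z - w) = 0 := by rw [mulVec_sub, mulVec_sub, hu', w1]; simp
  have := S.add huu (by
      rw [hf.add_left, h3, add_zero]; exact hf.eq_zero_comm.1 (tg_perp hf hu w1))
    (hf.eq_zero_comm.1 (tg_perp hf hu w2)) k (h1 u _ hu w2)
  rwa [show w + a† *ᵥ z + (z - a† *ᵥ z - w) = z by abel] at this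

theorem TgVS.all (P : PD σ f a) (hr : 1 ≤ a.rank) (hr' : a + a† ≠ 1 ∨ 3 ≤ a.rank)
    (hs : ∀ v, Sg (a *ᵥ v)) (hs' : ∀ v, Sg (a† *ᵥ v))
    (h1 : ∀ u v, a *ᵥ u = u → a† *ᵥ v = 0 → TgS ε f M Val u v)
    (h2 : ∀ u v, a† *ᵥ u = u → a *ᵥ v = 0 → TgS ε f M Val u v) {u : ι → F} (hu : Sg u)
    {z : ι → F} (hz : f z u = 0) : TgS ε f M Val u z := by
  have hf := S.ses
  by_cases h0 : u = 0
  · intro θ _
    rw [h0, elm, br_zero_left, br_zero_left, br_zero_right hf]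
    simpa using ms_one
  have hp : ∀ u u', a† *ᵥ u = u → a†† *ᵥ u' = u' →
      ∃ w v, a†† *ᵥ w = 0 ∧ a† *ᵥ v = 0 ∧ f w v = 1 ∧ f w u' = 0 ∧ f u v = 0 := by
    rw [hf.adj_adj]
    intro u u' hu hu'
    obtain ⟨w, v, w1, v1, wv, wu, uv⟩ := tg_pair hf P hr' hu' hu
    exact ⟨ε • v, w, by rw [mulVec_smul, v1, smul_zero], w1,
      by rw [hf.smul_left, hf.herm, wv, map_one, mul_one, hf.eps_mul_self],
      by rw [hf.smul_left, hf.eq_zero_comm.1 uv, mul_zero], hf.eq_zero_comm.1 wu⟩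
  have e0 : ∃ x, a *ᵥ x ≠ 0 := by
    by_contra hc
    push Not at hc
    have : a = 0 := matrix_ext_mulVec fun x => by rw [hc, zero_mulVec]
    rw [this, rank_zero] at hr
    omega
  obtain ⟨x, hx⟩ := e0
  obtain ⟨y, hy⟩ := exists_f_one hf hx
  refine conn hf (Sg := Sg) (P := fun u => ∀ z, f z u = 0 → TgS ε f M Val u z) S.sg S.part ?_
    (hs x) (hs' y) (fun z hz => S.point P (fun _ _ => tg_pair hf P hr') h1 h2
      (by rw [mulVec_mulVec, P.aa]) hz)
    (fun z hz => S.point (tg_pd_adj hf P) hp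
      (by rw [hf.adj_adj]; exact h2) (by rw [hf.adj_adj]; exact h1)
      (by rw [mulVec_mulVec, P.bb hf]) hz)
    (by rw [← hf.adj_spec, mulVec_mulVec, P.aa, hy]; exact one_ne_zero) hu h0 z hz
  intro u v v' hu hv hv' pu pv h3 h4 z hz
  have hc : f v u / f v' u ≠ 0 := div_ne_zero h3 h4
  have hv'' := S.sgs (f v u / f v' u) v' hv'
  obtain ⟨t, θ, t1, t2, t3⟩ := exists_elm_move hf (S.sg u hu) (S.sg v hv) (S.sg _ hv'') h3
    (by rw [hf.smul_left, div_mul_cancel₀ _ h4])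
  obtain ⟨g, hg, e⟩ := mem_matrixSet.1 (pu t t1 θ (S.move u v t θ hu hv h3 t1 t2 (t3 ▸ hv'')))
  rw [← e] at t3
  intro θ' hθ'
  generalize f v u / f v' u = c at hc t3
  have k := S.conj hg (pv (((g⁻¹ : GL ι F) : Matrix ι ι F) *ᵥ (σ c⁻¹ • z)) (by
    rw [← S.le hg, mulVec_inv_mulVec, t3, hf.smul_left, hf.smul_right, hz, mul_zero, mul_zero]))
  rw [mulVec_inv_mulVec, t3] at k
  have := k _ (S.sm (σ c⁻¹) z θ' hθ')
  rwa [← tg_elm_smul hf, inv_smul_smul₀ hc] at this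

end Cfsg.Agent.H94
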